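import Mathlib
import Cfsg.Agent.S0688
import Cfsg.Agent.Lib.Helper12.Fpf
import Cfsg.Agent.Lib.Helper73.DihedralIso

set_option autoImplicit false

/-!
Conditional core of S0686: a minimal non-abelian normal subgroup `N` of a regular linear
group, centralising a maximal normal abelian subgroup, is quaternion of order eight or
`SL(2,5)`, given the hub (the statement of S0690, Zassenhaus' theorem on perfect groups of
fixed-point-free automorphisms).
-/

namespace Cfsg.Agent.Lib.Helper50.NFQ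

open Cfsg.Agent.Lib.Helper12

universe u

/-- the hub: the literal statement of S0690 at universe `u` -/
def Hub : Prop :=
  ∀ (K : Type u) [Group K] [Finite K] (G : Subgroup (MulAut K)),
    (∀ φ ∈ G, φ ≠ 1 → ∀ k : K, φ k = k → k = 1) → commutator G = ⊤ → G ≠ ⊥ →
    Nonempty (G ≃* Matrix.SpecialLinearGroup (Fin 2) (ZMod 5))

section Abstract

variable {G : Type*} [Group G]

theorem pow_four_eq (a : G) : a ^ 4 = (a * a) * (a * a) := by
  rw [show (4 : ℕ) = 2 + 2 from rfl, pow_add, pow_two]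

/-- fourth powers are multiplicative on a pair that commutes up to a central involution -/
theorem pow_four_mul {c a b : G} (hcc : c * c = 1) (hcen : ∀ g : G, Commute c g)
    (hab : Commute a b ∨ a * b = c * b * a) (ha : a ^ 4 = 1) (hb : b ^ 4 = 1) :
    (a * b) ^ 4 = 1 := by
  rcases hab with h | h
  · rw [h.mul_pow, ha, hb, one_mul]
  · have hci : c⁻¹ = c := inv_eq_of_mul_eq_one_left hcc
    have h' : b * a = c * a * b := by
      have := Fpf.swap_rel h
      rwa [hci] at this
    have h4 := Fpf.mul_pow_rel h' (hcen b) (hcen a) 4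
    have hs : (∑ i ∈ Finset.range 4, i) = 3 + 3 := by decide
    rw [h4, ha, hb, Fpf.even_pow_invol hcc ⟨3, hs⟩, one_mul, one_mul]

/-- the solvable branch: the derived subgroup of `N` is abelian -/
theorem quat_branch [Finite G] (hAC : Fpf.AC G) (hUI : Fpf.UI G)
    (A : Subgroup G) (hAn : A.Normal) (hAc : IsMulCommutative A)
    (hAmax : ∀ B : Subgroup G, B.Normal → IsMulCommutative B → A ≤ B → B = A)
    (N : Subgroup G) (hNn : N.Normal) (hNle : N ≤ Subgroup.centralizer (A : Set G))
    (hNna : ¬ IsMulCommutative N)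
    (hNmin : ∀ M : Subgroup G, M.Normal → M ≤ N → ¬ IsMulCommutative M → M = N)
    (hder : IsMulCommutative (⁅N, N⁆ : Subgroup G)) :
    Nonempty (N ≃* QuaternionGroup 2) := by
  classical
  have := hAn
  have := hNn
  have hBn : (⁅N, N⁆ : Subgroup G).Normal := inferInstance
  have hBN : (⁅N, N⁆ : Subgroup G) ≤ N := Subgroup.commutator_le_left N N
  have hBC : (⁅N, N⁆ : Subgroup G) ≤ Subgroup.centralizer (A : Set G) := hBN.trans hNle
  have hAC' : A ≤ Subgroup.centralizer (A : Set G) := by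
    intro a ha
    rw [Subgroup.mem_centralizer_iff]
    intro b hb
    exact congrArg Subtype.val (hAc.is_comm.comm ⟨b, hb⟩ ⟨a, ha⟩)
  have hBB : (⁅N, N⁆ : Subgroup G) ≤ Subgroup.centralizer ((⁅N, N⁆ : Subgroup G) : Set G) := by
    intro a ha
    rw [Subgroup.mem_centralizer_iff]
    intro b hb
    exact congrArg Subtype.val (hder.is_comm.comm ⟨b, hb⟩ ⟨a, ha⟩)
  have hAB : A ≤ Subgroup.centralizer ((⁅N, N⁆ : Subgroup G) : Set G) :=
    Subgroup.le_centralizer_iff.mp hBC
  have hcomm_le : (⁅N, N⁆ : Subgroup G) ≤ A := by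
    have hsup : A ⊔ ⁅N, N⁆ ≤ Subgroup.centralizer ((A ⊔ ⁅N, N⁆ : Subgroup G) : Set G) := by
      rw [sup_le_iff]
      constructor
      · rw [Subgroup.le_centralizer_iff, sup_le_iff]; exact ⟨hAC', hBC⟩
      · rw [Subgroup.le_centralizer_iff, sup_le_iff]; exact ⟨hAB, hBB⟩
    have hsc : IsMulCommutative (A ⊔ ⁅N, N⁆ : Subgroup G) :=
      ⟨⟨fun a b => Subtype.ext (Subgroup.mem_centralizer_iff.mp (hsup b.2) a a.2)⟩⟩
    have h := hAmax (A ⊔ ⁅N, N⁆) inferInstance hsc le_sup_left
    exact h ▸ le_sup_right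
  have hNna' : ∃ x ∈ N, ∃ y ∈ N, x * y ≠ y * x := by
    by_contra hcon
    push Not at hcon
    exact hNna ⟨⟨fun a b => Subtype.ext (hcon a.1 a.2 b.1 b.2)⟩⟩
  obtain ⟨x₀, hx₀, y₀, hy₀, hne⟩ := hNna'
  have hcA : x₀ * y₀ * x₀⁻¹ * y₀⁻¹ ∈ A := hcomm_le (Subgroup.commutator_mem_commutator hx₀ hy₀)
  have hcx : Commute (x₀ * y₀ * x₀⁻¹ * y₀⁻¹) x₀ :=
    Subgroup.mem_centralizer_iff.mp (hNle hx₀) _ hcA
  have hcy : Commute (x₀ * y₀ * x₀⁻¹ * y₀⁻¹) y₀ :=
    Subgroup.mem_centralizer_iff.mp (hNle hy₀) _ hcA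
  have hrel : x₀ * y₀ = (x₀ * y₀ * x₀⁻¹ * y₀⁻¹) * y₀ * x₀ := by group
  have hc1 : x₀ * y₀ * x₀⁻¹ * y₀⁻¹ ≠ 1 := by
    intro h1
    apply hne
    rw [hrel, h1, one_mul]
  generalize x₀ * y₀ * x₀⁻¹ * y₀⁻¹ = c at hcA hcx hcy hrel hc1
  obtain ⟨hcc, m, m', hX, hY, hXY⟩ := Fpf.exists_quaternion hAC hUI hrel hcx hcy hc1
  have key : ∃ X ∈ N, ∃ Y ∈ N, X * X = c ∧ Y * Y = c ∧ X * Y = c * Y * X :=
    ⟨x₀ ^ m, N.pow_mem hx₀ m, y₀ ^ m', N.pow_mem hy₀ m', hX, hY, hXY⟩
  obtain ⟨X, hXN, Y, hYN, hX, hY, hXY⟩ := key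
  have hcen : ∀ g : G, Commute c g := Fpf.central_of_UI hUI hc1 hcc
  have dich : ∀ u ∈ N, ∀ v ∈ N, Commute u v ∨ u * v = c * v * u := by
    intro u hu v hv
    have hdA : u * v * u⁻¹ * v⁻¹ ∈ A := hcomm_le (Subgroup.commutator_mem_commutator hu hv)
    have hdu : Commute (u * v * u⁻¹ * v⁻¹) u := Subgroup.mem_centralizer_iff.mp (hNle hu) _ hdA
    have hdv : Commute (u * v * u⁻¹ * v⁻¹) v := Subgroup.mem_centralizer_iff.mp (hNle hv) _ hdA
    have hrel' : u * v = (u * v * u⁻¹ * v⁻¹) * v * u := by group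
    generalize u * v * u⁻¹ * v⁻¹ = d at hdA hdu hdv hrel'
    by_cases hd1 : d = 1
    · left
      show u * v = v * u
      rw [hrel', hd1, one_mul]
    · right
      have := Fpf.comm_sq_eq_one hAC hUI hrel' hdu hdv hd1
      rcases Fpf.sq_cases hUI hc1 hcc this with h | h
      · exact absurd h hd1
      · rw [← h]; exact hrel'
  -- the elements of `N` killed by four form a normal subgroup
  let N0 : Subgroup G :=
    { carrier := {a | a ∈ N ∧ a ^ 4 = 1}
      one_mem' := ⟨N.one_mem, one_pow 4⟩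
      mul_mem' := fun {a b} ha hb => ⟨N.mul_mem ha.1 hb.1,
        pow_four_mul hcc hcen (dich a ha.1 b hb.1) ha.2 hb.2⟩
      inv_mem' := fun {a} ha => ⟨N.inv_mem ha.1, by rw [inv_pow, ha.2, inv_one]⟩ }
  have hN0mem : ∀ a : G, a ∈ N0 ↔ a ∈ N ∧ a ^ 4 = 1 := fun a => Iff.rfl
  have hN0n : N0.Normal := ⟨fun a ha g => (hN0mem _).mpr ⟨hNn.conj_mem a ha.1 g, by
    rw [conj_pow, ha.2, mul_one, mul_inv_cancel]⟩⟩
  have hN0le : N0 ≤ N := fun a ha => ha.1
  have hX4 : X ^ 4 = 1 := by
    rw [pow_four_eq, hX, hcc]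
  have hY4 : Y ^ 4 = 1 := by
    rw [pow_four_eq, hY, hcc]
  have hXYne : X * Y ≠ Y * X := fun h => hc1 (Fpf.eq_one_of_commute hXY h)
  have hN0na : ¬ IsMulCommutative N0 := by
    intro hcom
    apply hXYne
    exact congrArg Subtype.val
      (hcom.is_comm.comm ⟨X, (hN0mem X).mpr ⟨hXN, hX4⟩⟩ ⟨Y, (hN0mem Y).mpr ⟨hYN, hY4⟩⟩)
  have hN0 : N0 = N := hNmin N0 hN0n hN0le hN0na
  have h4 : ∀ a ∈ N, a ^ 4 = 1 := by
    intro a ha
    rw [← hN0] at ha
    exact ((hN0mem a).mp ha).2
  have hall : ∀ a ∈ N, a = 1 ∨ a = c ∨ a = X ∨ a = c * X ∨ a = Y ∨ a = c * Y ∨ a = X * Y ∨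
      a = c * (X * Y) := by
    intro b hb
    have h44 : (b * b) * (b * b) = 1 := by
      rw [← pow_four_eq]; exact h4 b hb
    rcases Fpf.sq_cases hUI hc1 hcc h44 with h | hbb
    · rcases Fpf.sq_cases hUI hc1 hcc h with h' | h'
      · left; exact h'
      · right; left; exact h'
    · rcases dich b hb X hXN with h1 | h1
      · rcases Fpf.eq_or_eq_mul_of_comm hUI hc1 hcc hbb hX h1 with h | h
        · right; right; left; exact h
        · right; right; right; left; exact h
      · rcases dich b hb Y hYN with h2 | h2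
        · rcases Fpf.eq_or_eq_mul_of_comm hUI hc1 hcc hbb hY h2 with h | h
          · right; right; right; right; left; exact h
          · right; right; right; right; right; left; exact h
        · have hzX : Commute c X := hcen X
          have h3 : Commute b (X * Y) := by
            show b * (X * Y) = X * Y * b
            calc b * (X * Y) = (b * X) * Y := by rw [mul_assoc]
            _ = c * X * (b * Y) := by rw [h1]; simp only [mul_assoc]
            _ = c * X * (c * Y * b) := by rw [h2]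
            _ = (c * X) * c * Y * b := by simp only [mul_assoc]
            _ = X * (c * c) * Y * b := by rw [hzX.eq]; simp only [mul_assoc]
            _ = X * Y * b := by rw [hcc, mul_one]
          have hXY2 : (X * Y) * (X * Y) = c := by
            have hYX : Y * X = c * X * Y := by
              have := Fpf.swap_rel hXY
              rwa [inv_eq_of_mul_eq_one_left hcc] at this
            calc (X * Y) * (X * Y) = X * (Y * X) * Y := by simp only [mul_assoc]
            _ = X * (c * X * Y) * Y := by rw [hYX]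
            _ = (X * c) * X * Y * Y := by simp only [mul_assoc]
            _ = c * (X * X) * (Y * Y) := by rw [← hzX.eq]; simp only [mul_assoc]
            _ = c := by rw [hX, hY, hcc, one_mul]
          rcases Fpf.eq_or_eq_mul_of_comm hUI hc1 hcc hbb hXY2 h3 with h | h
          · right; right; right; right; right; right; left; exact h
          · right; right; right; right; right; right; right; exact h
  have hle8 : Nat.card N ≤ 8 := by
    let f : Fin 8 → G := ![1, c, X, c * X, Y, c * Y, X * Y, c * (X * Y)]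
    have hsub : (N : Set G) ⊆ Set.range f := by
      intro a ha
      rcases hall a ha with h | h | h | h | h | h | h | h
      · exact ⟨0, h.symm⟩
      · exact ⟨1, h.symm⟩
      · exact ⟨2, h.symm⟩
      · exact ⟨3, h.symm⟩
      · exact ⟨4, h.symm⟩
      · exact ⟨5, h.symm⟩
      · exact ⟨6, h.symm⟩
      · exact ⟨7, h.symm⟩
    calc Nat.card N = (N : Set G).ncard := rfl
      _ ≤ (Set.range f).ncard := Set.ncard_le_ncard hsub (Set.finite_range f)
      _ = (f '' Set.univ).ncard := by rw [Set.image_univ]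
      _ ≤ (Set.univ : Set (Fin 8)).ncard := Set.ncard_image_le
      _ = 8 := by rw [Set.ncard_univ, Nat.card_fin]
  have hXo : orderOf X = 4 := Fpf.orderOf_eq_four hc1 hcc hX
  have hYnot : (⟨Y, hYN⟩ : N) ∉ Subgroup.zpowers (⟨X, hXN⟩ : N) := by
    intro hmem
    obtain ⟨k, hk⟩ := Subgroup.mem_zpowers_iff.mp hmem
    have hYk : X ^ k = Y := by
      have := congrArg Subtype.val hk
      simpa using this
    apply hXYne
    rw [← hYk]
    exact ((Commute.refl X).zpow_right k).eq
  have hXo' : orderOf (⟨X, hXN⟩ : N) = 4 := by rw [Subgroup.orderOf_mk]; exact hXo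
  have h4dvd : 4 ∣ Nat.card N := by
    rw [← hXo']; exact orderOf_dvd_natCard _
  have hcard : Nat.card N = 8 := by
    have hpos : 0 < Nat.card N := Nat.card_pos
    obtain ⟨k, hk⟩ := h4dvd
    have hk12 : k = 1 ∨ k = 2 := by omega
    rcases hk12 with rfl | rfl
    · exfalso
      apply hYnot
      have hz : Nat.card (Subgroup.zpowers (⟨X, hXN⟩ : N)) = Nat.card N := by
        rw [Nat.card_zpowers, hXo', hk]
      rw [Subgroup.eq_top_of_card_eq _ hz]
      exact Subgroup.mem_top _
    · omega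
  have hYX : Y * X = c * X * Y := by
    have := Fpf.swap_rel hXY
    rwa [inv_eq_of_mul_eq_one_left hcc] at this
  have hXcX : X * (c * X) = 1 := by
    calc X * (c * X) = (X * c) * X := by rw [mul_assoc]
      _ = (c * X) * X := by rw [(hcen X).eq]
      _ = c * (X * X) := by rw [mul_assoc]
      _ = 1 := by rw [hX, hcc]
  refine Cfsg.Agent.Lib.Helper73.nonempty_mulEquiv_quaternionGroup 2
    (⟨X, hXN⟩ : N) ⟨Y, hYN⟩ hXo' ?_ ?_ hYnot ?_
  · apply Subtype.ext
    show Y ^ 2 = X ^ 2
    rw [pow_two, pow_two, hX, hY]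
  · apply Subtype.ext
    show Y * X * Y⁻¹ = X⁻¹
    calc Y * X * Y⁻¹ = c * X * Y * Y⁻¹ := by rw [hYX]
      _ = c * X := by group
      _ = X⁻¹ := (inv_eq_of_mul_eq_one_right hXcX).symm
  · rw [hcard]

end Abstract

section Linear

variable {p : ℕ} [Fact p.Prime] {V : Type u} [AddCommGroup V] [Module (ZMod p) V]

/-- a linear automorphism as an automorphism of the multiplicative copy of `V` -/
def psi : (V ≃ₗ[ZMod p] V) →* MulAut (Multiplicative V) where
  toFun g := AddEquiv.toMultiplicative g.toAddEquiv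
  map_one' := rfl
  map_mul' _ _ := rfl

theorem psi_injective : Function.Injective (psi (p := p) (V := V)) := by
  intro g h hgh
  ext v
  exact congrArg (fun φ : MulAut (Multiplicative V) =>
    Multiplicative.toAdd (φ (Multiplicative.ofAdd v))) hgh

/-- the perfect branch: apply the hub -/
theorem perfect_branch [Finite V] (hub : Hub.{u}) (H : Subgroup (V ≃ₗ[ZMod p] V))
    (hsemi : ∀ (h : H) (v : V), v ≠ 0 → (h : V ≃ₗ[ZMod p] V) v = v → h = 1)
    (N : Subgroup H) (hperf : ⁅N, N⁆ = N) (hne : N ≠ ⊥) :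
    Nonempty (N ≃* Matrix.SpecialLinearGroup (Fin 2) (ZMod 5)) := by
  let φ : N →* MulAut (Multiplicative V) :=
    (psi (p := p) (V := V)).comp (H.subtype.comp N.subtype)
  have hφ : Function.Injective φ := by
    intro a b hab
    exact Subtype.ext (Subtype.ext (psi_injective hab))
  let e : N ≃* φ.range := MonoidHom.ofInjective hφ
  have hfpf : ∀ f ∈ φ.range, f ≠ 1 → ∀ k : Multiplicative V, f k = k → k = 1 := by
    rintro f ⟨n, rfl⟩ hf1 k hk
    by_contra hk1
    apply hf1
    have hv : Multiplicative.toAdd k ≠ 0 := fun h0 => hk1 (Multiplicative.toAdd.injective h0)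
    have hn1 : (n : H) = 1 :=
      hsemi (n : H) (Multiplicative.toAdd k) hv (congrArg Multiplicative.toAdd hk)
    have hn : n = 1 := Subtype.ext hn1
    rw [hn, map_one]
  have hperfN : commutator N = ⊤ := by
    have h1 : (commutator N).map N.subtype = (⊤ : Subgroup N).map N.subtype := by
      rw [Subgroup.map_subtype_commutator, hperf, ← MonoidHom.range_eq_map, Subgroup.range_subtype]
    exact Subgroup.map_injective N.subtype_injective h1
  have hperfG : commutator φ.range = ⊤ := by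
    have hmt : Subgroup.map e.toMonoidHom ⊤ = ⊤ :=
      Subgroup.map_top_of_surjective e.toMonoidHom e.surjective
    have h2 : (commutator N).map e.toMonoidHom = commutator φ.range := by
      rw [commutator_def, commutator_def, Subgroup.map_commutator, hmt]
    rw [← h2, hperfN, hmt]
  have hneG : φ.range ≠ ⊥ := by
    intro hbot
    apply hne
    rw [eq_bot_iff]
    intro n hn
    have h1 : φ ⟨n, hn⟩ ∈ φ.range := ⟨_, rfl⟩
    rw [hbot, Subgroup.mem_bot] at h1
    have h2 := hφ (h1.trans (map_one φ).symm)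
    rw [Subgroup.mem_bot]
    exact congrArg Subtype.val h2
  obtain ⟨e2⟩ := hub (Multiplicative V) φ.range hfpf hperfG hneG
  exact ⟨e.trans e2⟩

/-- the statement of S0686, from the hub -/
theorem s0686_of (hub : Hub.{u}) [Finite V] (H : Subgroup (V ≃ₗ[ZMod p] V))
    (hreg : ∀ v w : V, v ≠ 0 → w ≠ 0 → ∃! h : H, (h : V ≃ₗ[ZMod p] V) v = w)
    (hI : ∀ A : Subgroup H, A.Normal → IsCyclic A → ∃ W : Submodule (ZMod p) V,
      W ≠ ⊥ ∧ W ≠ ⊤ ∧ ∀ a ∈ A, ∀ v ∈ W, ((a : H) : V ≃ₗ[ZMod p] V) v ∈ W)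
    (A : Subgroup H) (hAn : A.Normal) (hAc : IsMulCommutative A)
    (hAmax : ∀ B : Subgroup H, B.Normal → IsMulCommutative B → A ≤ B → B = A)
    (N : Subgroup H) (hNn : N.Normal) (hNle : N ≤ Subgroup.centralizer (A : Set H))
    (hNna : ¬ IsMulCommutative N)
    (hNmin : ∀ M : Subgroup H, M.Normal → M ≤ N → ¬ IsMulCommutative M → M = N) :
    Nonempty (N ≃* QuaternionGroup 2) ∨
      Nonempty (N ≃* Matrix.SpecialLinearGroup (Fin 2) (ZMod 5)) := by
  classical
  have hfinL := S0684.finite_linEquiv (p := p) (V := V)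
  have hnt : Nontrivial V := by
    obtain ⟨W, hW, -, -⟩ := hI ⊥ inferInstance inferInstance
    obtain ⟨v, -, hv⟩ := (Submodule.ne_bot_iff _).mp hW
    exact ⟨⟨v, 0, hv⟩⟩
  have hsemi : ∀ (h : H) (v : V), v ≠ 0 → (h : V ≃ₗ[ZMod p] V) v = v → h = 1 :=
    S0684.semireg H hreg
  have hAC : Fpf.AC H := fun A hA => S0684.cyclic_of_semireg H A hA
    (fun a v hv hfix => Subtype.ext (hsemi a v hv hfix))
  have hneg : ∀ h : H, h * h = 1 → h ≠ 1 → ∀ v, (h : V ≃ₗ[ZMod p] V) v = -v := by
    intro h hh hne v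
    by_contra hcon
    apply hne
    apply hsemi h (v + (h : V ≃ₗ[ZMod p] V) v)
    · intro h0
      apply hcon
      exact eq_neg_of_add_eq_zero_right h0
    · rw [map_add]
      have h1 : (h : V ≃ₗ[ZMod p] V) ((h : V ≃ₗ[ZMod p] V) v) = v :=
        congrArg (fun g : H => (g : V ≃ₗ[ZMod p] V) v) hh
      rw [h1, add_comm]
  have hUI : Fpf.UI H := by
    intro a b ha ha1 hb hb1
    apply Subtype.ext
    apply LinearEquiv.ext
    intro v
    rw [hneg a ha ha1 v, hneg b hb hb1 v]
  have := hNn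
  by_cases hder : IsMulCommutative (⁅N, N⁆ : Subgroup H)
  · left
    exact quat_branch hAC hUI A hAn hAc hAmax N hNn hNle hNna hNmin hder
  · right
    have hNN : ⁅N, N⁆ = N :=
      hNmin ⁅N, N⁆ inferInstance (Subgroup.commutator_le_left N N) hder
    have hNbot : N ≠ ⊥ := by
      intro hbot
      apply hNna
      have hall1 : ∀ g ∈ N, g = 1 := by
        intro g hg
        rw [hbot] at hg
        exact Subgroup.mem_bot.mp hg
      refine ⟨⟨fun a b => ?_⟩⟩
      have ha : (a : H) = 1 := hall1 _ a.2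
      have hb : (b : H) = 1 := hall1 _ b.2
      apply Subtype.ext
      show (a : H) * (b : H) = (b : H) * (a : H)
      rw [ha, hb]
    exact perfect_branch hub H hsemi N hNN hNbot

end Linear

end Cfsg.Agent.Lib.Helper50.NFQ
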